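import Mathlib
import Cfsg.Agent.Lib.Helper83.MinSU.Defs
import Cfsg.Agent.Lib.Helper5.GUNondegStab
import Cfsg.Agent.Lib.Helper45.SUWrap

/-! Geometry of nondegenerate subspaces of the standard unitary space (for the S2152 farm). -/

set_option autoImplicit false

namespace Cfsg.Agent.Lib.Helper62.MinSU

open Matrix Cfsg.Agent.Lib.Helper13 Cfsg.Agent.Lib.Helper5 Cfsg.Agent.Lib.Helper57.RootSU
  Cfsg.Agent.Lib.Helper83.MinSU Cfsg.Agent.Lib.Helper94 Cfsg.Agent.Lib.Helper94.U
  Cfsg.Agent.Lib.Helper45.SUGen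

variable {F : Type*} [Field F] [Fintype F] {q n : ℕ}

omit [Fintype F] in
lemma herm_sum_left {ι : Type*} (s : Finset ι) (f : ι → Fin n → F) (v : Fin n → F) :
    Cfsg.hermForm n F q (∑ i ∈ s, f i) v = ∑ i ∈ s, Cfsg.hermForm n F q (f i) v := by
  classical
  induction s using Finset.induction_on with
  | empty => simp [hermForm_zero_left]
  | insert i s hi ih => rw [Finset.sum_insert hi, Finset.sum_insert hi, hermForm_add_left, ih]

lemma perp_span (hF : Fintype.card F = q ^ 2) {S : Set (Fin n → F)} {z : Fin n → F}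
    (h : ∀ y ∈ S, Cfsg.hermForm n F q z y = 0) :
    ∀ y ∈ Submodule.span F S, Cfsg.hermForm n F q z y = 0 := by
  intro y hy
  induction hy using Submodule.span_induction with
  | mem x hx => exact h x hx
  | zero => exact hermForm_zero_right hF z
  | add x y _ _ hx hy => rw [hermForm_add_right hF, hx, hy, add_zero]
  | smul a x _ hx => rw [hermForm_smul_right, hx, mul_zero]

lemma exists_frame (hF : Fintype.card F = q ^ 2) (W : Submodule F (Fin n → F)) (hW : Nondeg q W) :
    ∃ e : Fin (Module.finrank F W) → Fin n → F, Submodule.span F (Set.range e) = W ∧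
      ∀ a b, Cfsg.hermForm n F q (e a) (e b) = if a = b then 1 else 0 := by
  classical
  obtain ⟨e, -, hspan, horth⟩ := exists_orthonormal_frame hF n _ W rfl hW
  refine ⟨e, hspan, fun a b => ?_⟩
  rw [horth, hermForm_single_left, Pi.single_apply]
  have hq := two_le_of_card_sq hF
  by_cases hab : a = b
  · simp [hab]
  · simp [hab, show q ≠ 0 by omega]

lemma exists_decomp (hF : Fintype.card F = q ^ 2) (W : Submodule F (Fin n → F)) (hW : Nondeg q W)
    (x : Fin n → F) :
    ∃ x1 ∈ W, ∃ x2, (∀ w ∈ W, Cfsg.hermForm n F q x2 w = 0) ∧ x = x1 + x2 := by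
  classical
  obtain ⟨e, hspan, hδ⟩ := exists_frame hF W hW
  have hmem : ∀ a, e a ∈ W := fun a => hspan ▸ Submodule.subset_span ⟨a, rfl⟩
  refine ⟨∑ a, Cfsg.hermForm n F q x (e a) • e a,
    Submodule.sum_mem _ (fun a _ => W.smul_mem _ (hmem a)),
    x - ∑ a, Cfsg.hermForm n F q x (e a) • e a, ?_, by abel⟩
  intro w hw
  rw [← hspan] at hw
  refine perp_span hF ?_ w hw
  rintro _ ⟨b, rfl⟩
  rw [hermForm_sub_left, herm_sum_left]
  simp [hermForm_smul_left, hδ]

lemma exists_noniso (hF : Fintype.card F = q ^ 2) (W : Submodule F (Fin n → F)) (hW0 : W ≠ ⊥)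
    (hW : Nondeg q W) : ∃ x ∈ W, Cfsg.hermForm n F q x x ≠ 0 := by
  obtain ⟨e, hspan, hδ⟩ := exists_frame hF W hW
  have hpos : 0 < Module.finrank F W := by
    rw [Module.finrank_pos_iff]
    exact Submodule.nontrivial_iff_ne_bot.2 hW0
  have hmem : ∀ a, e a ∈ W := fun a => hspan ▸ Submodule.subset_span ⟨a, rfl⟩
  refine ⟨e ⟨0, hpos⟩, hmem _, ?_⟩
  rw [hδ, if_pos rfl]
  exact one_ne_zero

/-- making a vector isotropic by adding a multiple of an isotropic vector -/
lemma exists_add_smul_iso (hF : Fintype.card F = q ^ 2) {x w : Fin n → F}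
    (hx : Cfsg.hermForm n F q x x = 0) (hxw : Cfsg.hermForm n F q x w ≠ 0) :
    ∃ l : F, Cfsg.hermForm n F q (w + l • x) (w + l • x) = 0 := by
  obtain ⟨b, hb⟩ := exists_tr hF (-Cfsg.hermForm n F q w w)
    (by rw [neg_pow_q hF, hermForm_self_pow hF])
  refine ⟨b / Cfsg.hermForm n F q x w, ?_⟩
  have h1 : (b / Cfsg.hermForm n F q x w) * Cfsg.hermForm n F q x w = b := div_mul_cancel₀ _ hxw
  have h2 : (b / Cfsg.hermForm n F q x w) ^ q * Cfsg.hermForm n F q w x = b ^ q := by
    rw [← hermForm_swap hF x w, ← mul_pow, h1]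
  simp only [hermForm_add_left, hermForm_add_right hF, hermForm_smul_left, hermForm_smul_right, hx]
  linear_combination hb + h1 + h2

lemma exists_iso_partner (hF : Fintype.card F = q ^ 2) (W : Submodule F (Fin n → F))
    (hW : Nondeg q W) {x : Fin n → F} (hxW : x ∈ W) (hx0 : x ≠ 0)
    (hx : Cfsg.hermForm n F q x x = 0) :
    ∃ u ∈ W, Cfsg.hermForm n F q u u = 0 ∧ Cfsg.hermForm n F q x u ≠ 0 := by
  obtain ⟨w, hwW, hw⟩ : ∃ w ∈ W, Cfsg.hermForm n F q x w ≠ 0 := by
    by_contra hcon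
    push Not at hcon
    exact hx0 (hW x hxW hcon)
  obtain ⟨l, hl⟩ := exists_add_smul_iso hF hx hw
  refine ⟨w + l • x, W.add_mem hwW (W.smul_mem _ hxW), hl, ?_⟩
  rw [hermForm_add_right hF, hermForm_smul_right, hx, mul_zero, add_zero]
  exact hw

lemma exists_iso (hF : Fintype.card F = q ^ 2) (W : Submodule F (Fin n → F)) (hW : Nondeg q W)
    (hd : 2 ≤ Module.finrank F W) :
    ∃ u ∈ W, u ≠ 0 ∧ Cfsg.hermForm n F q u u = 0 := by
  obtain ⟨e, hspan, hδ⟩ := exists_frame hF W hW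
  have hmem : ∀ a, e a ∈ W := fun a => hspan ▸ Submodule.subset_span ⟨a, rfl⟩
  obtain ⟨t, ht⟩ := (hermH hF 0).exists_norm (-1) (by rw [map_neg, map_one])
  have ht' : t * t ^ q = -1 := ht
  have h01 : (⟨0, by omega⟩ : Fin (Module.finrank F W)) ≠ ⟨1, by omega⟩ := by
    intro h
    simpa using congrArg Fin.val h
  refine ⟨e ⟨0, by omega⟩ + t • e ⟨1, by omega⟩, W.add_mem (hmem _) (W.smul_mem _ (hmem _)), ?_, ?_⟩
  · intro h0
    have h1 : Cfsg.hermForm n F q (e ⟨0, by omega⟩ + t • e ⟨1, by omega⟩) (e ⟨0, by omega⟩) = 1 := by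
      rw [hermForm_add_left, hermForm_smul_left, hδ, hδ, if_pos rfl, if_neg h01.symm]
      ring
    rw [h0, hermForm_zero_left] at h1
    exact zero_ne_one h1
  · simp only [hermForm_add_left, hermForm_add_right hF, hermForm_smul_left, hermForm_smul_right,
      hδ, if_pos, if_neg h01, if_neg h01.symm]
    linear_combination ht'

/-- a nondegenerate subspace of dimension at least two is spanned by its isotropic vectors -/
lemma le_of_iso_mem (hF : Fintype.card F = q ^ 2) (W : Submodule F (Fin n → F)) (hW : Nondeg q W)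
    (hd : 2 ≤ Module.finrank F W) (T : Submodule F (Fin n → F))
    (hT : ∀ u ∈ W, Cfsg.hermForm n F q u u = 0 → u ∈ T) : W ≤ T := by
  obtain ⟨u, huW, hu0, hu⟩ := exists_iso hF W hW hd
  obtain ⟨v, hvW, hv, huv⟩ := exists_iso_partner hF W hW huW hu0 hu
  have key : ∀ w ∈ W, Cfsg.hermForm n F q u w ≠ 0 → w ∈ T := by
    intro w hw hne
    obtain ⟨l, hl⟩ := exists_add_smul_iso hF hu hne
    have h1 := hT _ (W.add_mem hw (W.smul_mem l huW)) hl
    have h2 := T.smul_mem l (hT u huW hu)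
    have : w = (w + l • u) - l • u := by abel
    rw [this]
    exact T.sub_mem h1 h2
  intro w hw
  by_cases h : Cfsg.hermForm n F q u w = 0
  · have h1 := key (w + v) (W.add_mem hw hvW) (by rw [hermForm_add_right hF, h, zero_add]; exact huv)
    have : w = (w + v) - v := by abel
    rw [this]
    exact T.sub_mem h1 (hT v hvW hv)
  · exact key w hw h

lemma exists_Fq (hF : Fintype.card F = q ^ 2) (hq : 3 ≤ q) :
    ∃ l : F, l ^ q = l ∧ l ≠ 0 ∧ l ≠ 1 := by
  obtain ⟨a, ha0, ha⟩ := Cfsg.Agent.Lib.Helper45.SUGen.exists_norm_ne_one hF (by omega)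
  have ha' : a * a ^ q ≠ 1 := ha
  refine ⟨a * a ^ q, ?_, mul_ne_zero ha0 (pow_ne_zero _ ha0), ha'⟩
  rw [mul_pow, pow_q_pow_q hF, mul_comm]

end Cfsg.Agent.Lib.Helper62.MinSU
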