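import Mathlib
import Cfsg.Agent.Lib.Helper83.MinSU.Defs
import Cfsg.Agent.Lib.Helper5.HermFrames
import Cfsg.Agent.Lib.Helper5.SUOrder
import Cfsg.Agent.Lib.Helper45.SUWrap
import Cfsg.Agent.Lib.Helper63.MinSU.Tools
import Cfsg.Agent.S0284

/-! `SU_n(q)` is transitive on the vectors of a given nonzero norm (for the S2152 farm, ODD4). -/

set_option autoImplicit false

namespace Cfsg.Agent.Lib.Helper62.MinSU

open Matrix Cfsg.Agent.Lib.Helper13 Cfsg.Agent.Lib.Helper5 Cfsg.Agent.Lib.Helper57.RootSU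
  Cfsg.Agent.Lib.Helper83.MinSU Cfsg.Agent.Lib.Helper94 Cfsg.Agent.Lib.Helper94.U
  Cfsg.Agent.Lib.Helper45.SUGen Cfsg.Agent.Lib.Helper63.MinSU

variable {F : Type*} [Field F] [Fintype F] {q n : ℕ}

lemma exists_su_map_single (hF : Fintype.card F = q ^ 2) (hn : 2 ≤ n) (t : F) (ht : t ≠ 0)
    (x : Fin n → F) (hx : Cfsg.hermForm n F q x x = t * t ^ q) :
    ∃ g : Cfsg.SU n F q, g.1.1 *ᵥ (t • Pi.single (⟨0, by omega⟩ : Fin n) (1 : F)) = x := by
  classical
  have hq := two_le_of_card_sq hF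
  set e0 : Fin n → F := Pi.single (⟨0, by omega⟩ : Fin n) (1 : F) with he0
  have hee : Cfsg.hermForm n F q e0 e0 = 1 := by
    rw [he0, hermForm_single_left, Pi.single_eq_same, one_pow]
  have htt : t * t ^ q ≠ 0 := mul_ne_zero ht (pow_ne_zero _ ht)
  have hx0 : x ≠ 0 := by
    rintro rfl
    rw [hermForm_zero_left] at hx
    exact htt hx.symm
  have he00 : t • e0 ≠ 0 := by
    intro h
    have h1 := congrFun h (⟨0, by omega⟩ : Fin n)
    rw [he0] at h1
    simp at h1
    exact ht h1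
  obtain ⟨A, hA⟩ := exists_gu_of_frames hF n (κ := Unit) (fun _ => t • e0) (fun _ => x)
    (LinearIndependent.of_subsingleton () he00) (LinearIndependent.of_subsingleton () hx0)
    (fun _ _ => by
      rw [hermForm_smul_left, hermForm_smul_right, hee, hx]; ring)
  have hA' : A.1.1 *ᵥ (t • e0) = x := congrFun hA ()
  have hdet := det_pow_eq_one_of_preserves hF A.1.1 A.2
  set δ : F := A.1.1.det with hδ
  have hδ0 : δ ≠ 0 := by
    intro h
    rw [h, zero_pow (by omega)] at hdet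
    exact zero_ne_one hdet
  let d : Fin n → F := Function.update (fun _ => 1) (⟨1, by omega⟩ : Fin n) δ⁻¹
  have hdd : ∀ i, d i ^ (q + 1) = 1 := by
    intro i
    by_cases hi : i = ⟨1, by omega⟩
    · subst hi
      simp only [d, Function.update_self]
      rw [inv_pow, hdet, inv_one]
    · simp [d, hi]
  have hdetd : (Matrix.diagonal d).det = δ⁻¹ := by
    rw [Matrix.det_diagonal]
    simp only [d]
    rw [Finset.prod_update_of_mem (Finset.mem_univ _)]
    simp
  have hdetM : (A.1.1 * Matrix.diagonal d).det = 1 := by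
    rw [Matrix.det_mul, hdetd, ← hδ, mul_inv_cancel₀ hδ0]
  have hpres : ∀ u v, Cfsg.hermForm n F q ((A.1.1 * Matrix.diagonal d) *ᵥ u)
      ((A.1.1 * Matrix.diagonal d) *ᵥ v) = Cfsg.hermForm n F q u v := by
    intro u v
    rw [← Matrix.mulVec_mulVec, ← Matrix.mulVec_mulVec]
    exact (A.2 _ _).trans (diagonal_preserves d hdd u v)
  refine ⟨⟨⟨A.1.1 * Matrix.diagonal d, hdetM⟩, hpres⟩, ?_⟩
  show (A.1.1 * Matrix.diagonal d) *ᵥ (t • e0) = x
  rw [← Matrix.mulVec_mulVec]
  have h1 : Matrix.diagonal d *ᵥ (t • e0) = t • e0 := by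
    funext i
    rw [Matrix.mulVec_diagonal]
    by_cases hi : i = ⟨0, by omega⟩
    · subst hi
      have : d ⟨0, by omega⟩ = 1 := by
        simp [d, Fin.ext_iff]
      rw [this, one_mul]
    · simp [he0, hi]
  rw [h1, hA']

/-- `SU_n(q)`, `n ≥ 2`, is transitive on the vectors of given nonzero norm. -/
theorem exists_su_map_norm (hF : Fintype.card F = q ^ 2) (hn : 2 ≤ n) (x x' : Fin n → F)
    (h : Cfsg.hermForm n F q x x = Cfsg.hermForm n F q x' x')
    (h0 : Cfsg.hermForm n F q x x ≠ 0) : ∃ g : Cfsg.SU n F q, g.1.1 *ᵥ x = x' := by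
  obtain ⟨t, ht⟩ := (hermH hF 0).exists_norm (Cfsg.hermForm n F q x x) (hermForm_self_pow hF x)
  have ht' : t * t ^ q = Cfsg.hermForm n F q x x := ht
  have ht0 : t ≠ 0 := by
    rintro rfl
    rw [zero_mul] at ht'
    exact h0 ht'.symm
  obtain ⟨g, hg⟩ := exists_su_map_single hF hn t ht0 x ht'.symm
  obtain ⟨g', hg'⟩ := exists_su_map_single hF hn t ht0 x' (h ▸ ht'.symm)
  refine ⟨g' * g⁻¹, ?_⟩
  rw [SU_mul_mulVec, ← hg, SU_inv_mulVec_mulVec, hg']

theorem mem_orbit_norm (hF : Fintype.card F = q ^ 2) (hn : 2 ≤ n) (x : Fin n → F)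
    (hx : Cfsg.hermForm n F q x x ≠ 0) (v : Fin n → F) :
    v ∈ suOrbit q x ↔ Cfsg.hermForm n F q v v = Cfsg.hermForm n F q x x := by
  constructor
  · rintro ⟨g, rfl⟩
    show Cfsg.hermForm n F q (g.1.1 *ᵥ x) (g.1.1 *ᵥ x) = _
    rw [SU_preserves]
  · intro hv
    obtain ⟨g, hg⟩ := exists_su_map_norm hF hn x v hv.symm hx
    exact ⟨g, hg⟩

theorem card_norm (hF : Fintype.card F = q ^ 2) (n : ℕ) (c : F) (hc : c ^ q = c) (hc0 : c ≠ 0) :
    Nat.card {v : Fin n → F // Cfsg.hermForm n F q v v = c}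
      = Nat.card {v : Fin n → F // Cfsg.hermForm n F q v v = 1} := by
  obtain ⟨t, ht⟩ := (hermH hF 0).exists_norm c hc
  have ht' : t * t ^ q = c := ht
  have ht0 : t ≠ 0 := by
    rintro rfl
    rw [zero_mul] at ht'
    exact hc0 ht'.symm
  have htq : t ^ q ≠ 0 := pow_ne_zero _ ht0
  refine Nat.card_congr
    { toFun := fun v => ⟨t⁻¹ • v.1, ?_⟩
      invFun := fun v => ⟨t • v.1, ?_⟩
      left_inv := fun v => Subtype.ext (by
        show t • (t⁻¹ • v.1) = v.1
        rw [smul_smul, mul_inv_cancel₀ ht0, one_smul])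
      right_inv := fun v => Subtype.ext (by
        show t⁻¹ • (t • v.1) = v.1
        rw [smul_smul, inv_mul_cancel₀ ht0, one_smul]) }
  · rw [hermForm_smul_left, hermForm_smul_right, v.2, ← ht', inv_pow]
    field_simp
  · rw [hermForm_smul_left, hermForm_smul_right, v.2, ← ht']
    ring

theorem card_orbit_norm4 (hF : Fintype.card F = q ^ 2) (x : Fin 4 → F)
    (hx : Cfsg.hermForm 4 F q x x ≠ 0) :
    Nat.card (suOrbit q x) = q ^ 3 * (q ^ 4 - 1) := by
  have h1 := Cfsg.Agent.S0284.result hF 4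
  rw [if_pos (by decide)] at h1
  rw [← card_norm hF 4 _ (hermForm_self_pow hF x) hx] at h1
  rw [← h1]
  refine Nat.card_congr (Equiv.subtypeEquivRight fun v => ?_)
  exact mem_orbit_norm hF (by norm_num) x hx v

end Cfsg.Agent.Lib.Helper62.MinSU
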