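import Mathlib
import Cfsg.Agent.Lib.Helper83.MinSU.Defs
import Cfsg.Agent.Lib.Helper62.MinSU.Geo
import Cfsg.Agent.Lib.Helper75.MinSU.KW
import Cfsg.Agent.Lib.Helper8.MinSU.U1i

/-! [S1e] of the S2152 farm. -/

set_option autoImplicit false

namespace Cfsg.Agent.Lib.Helper62.MinSU

open Matrix Cfsg.Agent.Lib.Helper13 Cfsg.Agent.Lib.Helper5 Cfsg.Agent.Lib.Helper57.RootSU
  Cfsg.Agent.Lib.Helper83.MinSU
open Cfsg.Agent.Lib.Helper75.MinSU (norm_trans)
open Cfsg.Agent.Lib.Helper8.MinSU (rs_inv)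

variable {F : Type*} [Field F] [Fintype F] {q m n : ℕ}

/-- [S1e] enlarging `W` by a nonisotropic vector -/
theorem enlarge (hF : Fintype.card F = q ^ 2) (hq : 3 ≤ q) (K : Subgroup (Cfsg.SU n F q))
    (W : Submodule F (Fin n → F)) (hW : Nondeg q W) (hd : 3 ≤ Module.finrank F W)
    (hK : ∀ v ∈ W, Cfsg.hermForm n F q v v = 0 → v ∈ RS hF K) (x1 x2 : Fin n → F) (hx1 : x1 ∈ W)
    (hx2 : ∀ w ∈ W, Cfsg.hermForm n F q x2 w = 0) (hn0 : Cfsg.hermForm n F q x1 x1 ≠ 0)
    (hx : x1 + x2 ∈ RS hF K) :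
    ∃ W' : Submodule F (Fin n → F), Nondeg q W' ∧ Module.finrank F W < Module.finrank F W' ∧
      ∀ v ∈ W', Cfsg.hermForm n F q v v = 0 → v ∈ RS hF K := by
  have hx2' : ∀ w ∈ W, Cfsg.hermForm n F q w x2 = 0 :=
    fun w hw => hermForm_eq_zero_comm hF (hx2 w hw)
  have hnorm : Cfsg.hermForm n F q x2 x2 = -Cfsg.hermForm n F q x1 x1 := by
    have h := hx.1
    simp only [hermForm_add_left, hermForm_add_right hF, hx2 x1 hx1, hx2' x1 hx1] at h
    linear_combination h
  have hn2 : Cfsg.hermForm n F q x2 x2 ≠ 0 := by rw [hnorm]; exact neg_ne_zero.2 hn0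
  have hx2W : x2 ∉ W := fun h => hn2 (hx2 x2 h)
  refine ⟨W ⊔ Submodule.span F {x2}, ?_, ?_, ?_⟩
  · intro u hu hperp
    obtain ⟨w, hw, y, hy, rfl⟩ := Submodule.mem_sup.1 hu
    obtain ⟨μ, rfl⟩ := Submodule.mem_span_singleton.1 hy
    have h1 := hperp x2 (Submodule.mem_sup_right (Submodule.mem_span_singleton_self x2))
    rw [hermForm_add_left, hermForm_smul_left, hx2' w hw, zero_add] at h1
    have hμ : μ = 0 := (mul_eq_zero.1 h1).resolve_right hn2
    subst hμ
    rw [zero_smul, add_zero]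
    apply hW w hw
    intro v hv
    have h2 := hperp v (Submodule.mem_sup_left hv)
    rwa [zero_smul, add_zero] at h2
  · apply Submodule.finrank_lt_finrank_of_lt
    rw [lt_iff_le_and_ne]
    refine ⟨le_sup_left, ?_⟩
    intro h
    apply hx2W
    rw [h]
    exact Submodule.mem_sup_right (Submodule.mem_span_singleton_self x2)
  · intro v hv hiso
    obtain ⟨w, hw, y, hy, rfl⟩ := Submodule.mem_sup.1 hv
    obtain ⟨μ, rfl⟩ := Submodule.mem_span_singleton.1 hy
    by_cases hμ : μ = 0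
    · subst hμ
      rw [zero_smul, add_zero] at hiso ⊢
      exact hK w hw hiso
    · have hww : Cfsg.hermForm n F q w w = μ * μ ^ q * Cfsg.hermForm n F q x1 x1 := by
        simp only [hermForm_add_left, hermForm_add_right hF, hermForm_smul_left,
          hermForm_smul_right, hx2 w hw, hx2' w hw, hnorm] at hiso
        linear_combination hiso
      have hμq : μ ^ q ≠ 0 := pow_ne_zero _ hμ
      have hn' : Cfsg.hermForm n F q x1 x1 = Cfsg.hermForm n F q (μ⁻¹ • w) (μ⁻¹ • w) := by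
        rw [hermForm_smul_left, hermForm_smul_right, hww, inv_pow]
        field_simp
      obtain ⟨k, hkK, hk1, hk2⟩ := norm_trans hF hq K W hW hd hK x1 (μ⁻¹ • w) hx1
        (W.smul_mem _ hw) hn' hn0
      have h1 := (rs_inv hF K _ hx).1 k hkK
      rw [Matrix.mulVec_add, hk1, hk2 x2 hx2] at h1
      have h2 := (rs_inv hF K _ h1).2 μ
      rw [smul_add, smul_smul, mul_inv_cancel₀ hμ, one_smul] at h2
      exact h2

end Cfsg.Agent.Lib.Helper62.MinSU
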