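import Mathlib
import Cfsg.Agent.Lib.Helper83.MinSU.Defs
import Cfsg.Agent.Lib.Helper62.MinSU.Geo

/-! [S1r] of the S2152 farm. -/

set_option autoImplicit false

namespace Cfsg.Agent.Lib.Helper62.MinSU

open Matrix Cfsg.Agent.Lib.Helper13 Cfsg.Agent.Lib.Helper5 Cfsg.Agent.Lib.Helper57.RootSU
  Cfsg.Agent.Lib.Helper83.MinSU

variable {F : Type*} [Field F] [Fintype F] {q m n : ℕ}

/-- the stabiliser of a subspace in `SU_n(q)` -/
def stabW (q : ℕ) (W : Submodule F (Fin n → F)) : Subgroup (Cfsg.SU n F q) where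
  carrier := {g | ∀ x ∈ W, g.1.1 *ᵥ x ∈ W}
  one_mem' := fun x hx => by rw [SU_one_mulVec]; exact hx
  mul_mem' := fun {a b} ha hb x hx => by rw [SU_mul_mulVec]; exact ha _ (hb x hx)
  inv_mem' := by
    intro g hg
    classical
    have hfin : Finite (Cfsg.SU n F q) := inferInstance
    have hpow : ∀ k : ℕ, ∀ x ∈ W, (g ^ k).1.1 *ᵥ x ∈ W := by
      intro k
      induction k with
      | zero => intro x hx; rw [pow_zero, SU_one_mulVec]; exact hx
      | succ k ih => intro x hx; rw [pow_succ, SU_mul_mulVec]; exact ih _ (hg x hx)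
    have h1 : g⁻¹ = g ^ (orderOf g - 1) := by
      have hpos : 0 < orderOf g := orderOf_pos g
      rw [inv_eq_iff_mul_eq_one, ← pow_succ', Nat.sub_add_cancel hpos, pow_orderOf_eq_one]
    show ∀ x ∈ W, (g⁻¹).1.1 *ᵥ x ∈ W
    rw [h1]
    exact hpow _

lemma mem_stabW {W : Submodule F (Fin n → F)} {g : Cfsg.SU n F q} :
    g ∈ stabW q W ↔ ∀ x ∈ W, g.1.1 *ᵥ x ∈ W := Iff.rfl

/-- [S1r] -/
theorem relIndex_stab_le (hF : Fintype.card F = q ^ 2) (W : Submodule F (Fin n → F)) (hW0 : W ≠ ⊥)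
    (hW : Nondeg q W) (K : Subgroup (Cfsg.SU n F q))
    (hK : ∀ k ∈ K, (∀ x ∈ W, k.1.1 *ᵥ x ∈ W) ∨
      (∀ x ∈ W, ∀ y ∈ W, Cfsg.hermForm n F q (k.1.1 *ᵥ x) y = 0)) :
    ∃ K0 : Subgroup (Cfsg.SU n F q), K0 ≤ K ∧ (∀ k ∈ K0, ∀ x ∈ W, k.1.1 *ᵥ x ∈ W) ∧
      K0.index ≤ K.index * n := by
  classical
  have hfin : Finite (Cfsg.SU n F q) := inferInstance
  refine ⟨K ⊓ stabW q W, inf_le_left, fun k hk => hk.2, ?_⟩
  rw [← Subgroup.relIndex_mul_index (inf_le_left : K ⊓ stabW q W ≤ K), mul_comm]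
  apply Nat.mul_le_mul_left
  obtain ⟨x0, hx0W, hx0⟩ := exists_noniso hF W hW0 hW
  show Nat.card (↥K ⧸ (K ⊓ stabW q W).subgroupOf K) ≤ n
  have : Fintype (↥K ⧸ (K ⊓ stabW q W).subgroupOf K) := Fintype.ofFinite _
  let v : (↥K ⧸ (K ⊓ stabW q W).subgroupOf K) → (Fin n → F) :=
    fun c => (c.out : ↥K).1.1.1 *ᵥ x0
  have horth : ∀ c c', c ≠ c' → Cfsg.hermForm n F q (v c) (v c') = 0 := by
    intro c c' hne
    have hnot : (c'.out)⁻¹ * c.out ∉ (K ⊓ stabW q W).subgroupOf K := by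
      intro hmem
      apply hne
      have := (QuotientGroup.eq (s := (K ⊓ stabW q W).subgroupOf K) (a := c'.out) (b := c.out)).2 hmem
      rw [QuotientGroup.out_eq', QuotientGroup.out_eq'] at this
      exact this.symm
    set g : Cfsg.SU n F q := (((c'.out)⁻¹ * c.out : ↥K) : Cfsg.SU n F q) with hg
    have hgK : g ∈ K := ((c'.out)⁻¹ * c.out : ↥K).2
    have hgS : ¬ ∀ x ∈ W, g.1.1 *ᵥ x ∈ W := fun h => hnot ⟨hgK, h⟩
    have hperp := (hK g hgK).resolve_left hgS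
    have e1 : (c.out : ↥K).1 = (c'.out : ↥K).1 * g := by
      rw [hg]
      push_cast
      group
    show Cfsg.hermForm n F q ((c.out : ↥K).1.1.1 *ᵥ x0) ((c'.out : ↥K).1.1.1 *ᵥ x0) = 0
    rw [e1, SU_mul_mulVec, SU_preserves]
    exact hperp x0 hx0W x0 hx0W
  have hself : ∀ c, Cfsg.hermForm n F q (v c) (v c) ≠ 0 := by
    intro c
    show Cfsg.hermForm n F q ((c.out : ↥K).1.1.1 *ᵥ x0) ((c.out : ↥K).1.1.1 *ᵥ x0) ≠ 0
    rw [SU_preserves]
    exact hx0
  have hli : LinearIndependent F v := by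
    rw [Fintype.linearIndependent_iff]
    intro a ha c
    have h1 := congrArg (fun z => Cfsg.hermForm n F q z (v c)) ha
    simp only [herm_sum_left, hermForm_smul_left, hermForm_zero_left] at h1
    rw [Finset.sum_eq_single c] at h1
    · exact (mul_eq_zero.1 h1).resolve_right (hself c)
    · intro b _ hb
      rw [horth b c hb, mul_zero]
    · intro h
      exact absurd (Finset.mem_univ c) h
  have := hli.fintype_card_le_finrank
  rw [Module.finrank_fin_fun] at this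
  rw [Nat.card_eq_fintype_card]
  exact this

end Cfsg.Agent.Lib.Helper62.MinSU
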