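import Mathlib
import Cfsg.Agent.Lib.Helper83.MinSU.Defs
import Cfsg.Agent.Lib.Helper54.MinSU.ODD4b
import Cfsg.Agent.Lib.Helper62.MinSU.NormOrb

/-! [ODD4] of the S2152 farm (assembly of helper54's `wb4_odd_of` with the orbit count). -/

set_option autoImplicit false

namespace Cfsg.Agent.Lib.Helper62.MinSU

open Matrix Cfsg.Agent.Lib.Helper83.MinSU

variable {F : Type*} [Field F] [Fintype F] {q : ℕ}

/-- [ODD4] -/
theorem wb4_odd (hF : Fintype.card F = q ^ 2) (h2 : (2 : F) ≠ 0) (D : AddSubgroup (Fin 4 → F))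
    (R : Subgroup (Cfsg.SU 4 F q)) (hD0 : D ≠ ⊥)
    (hDq : ∀ c : F, c ^ q = c → ∀ w ∈ D, c • w ∈ D)
    (hD : ∀ w ∈ D, ∀ w' ∈ D, (Cfsg.hermForm 4 F q w w') ^ q = Cfsg.hermForm 4 F q w w')
    (hR : ∀ l ∈ R, ∀ w ∈ D, l.1.1 *ᵥ w ∈ D)
    (hrad : ∀ x ∈ D, (∀ y ∈ D, Cfsg.hermForm 4 F q x y = 0) → x = 0) :
    Nat.card D * NU q 6 ≤ q ^ 9 * R.index :=
  Cfsg.Agent.Lib.Helper54.MinSU.wb4_odd_of hF h2
    (fun x hx => (card_orbit_norm4 hF x hx).ge) D R hD0 hDq hD hR hrad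

end Cfsg.Agent.Lib.Helper62.MinSU
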