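import Mathlib
import Cfsg.Agent.Lib.Helper83.MinSU.DefsO
import Cfsg.Agent.Lib.Helper28.MinSU.S1d
import Cfsg.Agent.Lib.Helper12.MinSU.oNUM

/-! [oS1d] of the S2151 farm (after helper28's S1d). -/

set_option autoImplicit false

namespace Cfsg.Agent.Lib.Helper62.MinSU.O

open Matrix Module Cfsg.Agent.Lib.Helper13 Cfsg.Agent.Lib.Helper5 Cfsg.Agent.Lib.Helper57.RootSU
  Cfsg.Agent.Lib.Helper83.MinSU Cfsg.Agent.Lib.Helper28.MinSU

lemma sq_sub_one (q : ℕ) (hq : 1 ≤ q) : q ^ 2 - 1 = (q - 1) * (q + 1) := by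
  obtain ⟨t, rfl⟩ : ∃ t, q = t + 1 := ⟨q - 1, by omega⟩
  have : (t + 1) ^ 2 = t * (t + 1 + 1) + 1 := by ring
  rw [this]; simp

/-- `NO q n (q-1)(q+1) ≤ q^(2n-1)` -/
lemma NO_le {q n : ℕ} (hq : 2 ≤ q) (hn : 1 ≤ n) (ho : Odd n) :
    NO q n * ((q - 1) * (q + 1)) ≤ q ^ (2 * n - 1) := by
  have h := Cfsg.Agent.Lib.Helper12.MinSU.O.NO_mul (q := q) (n := n) hq ho
  rw [← sq_sub_one q (by omega), h]
  obtain ⟨y, hy⟩ : ∃ y, q ^ (n - 1) = y + 1 :=
    ⟨q ^ (n - 1) - 1, by have : 0 < q ^ (n - 1) := Nat.pow_pos (by omega)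
                         omega⟩
  have e1 : q ^ n = q * q ^ (n - 1) := by
    rw [← pow_succ']; congr 1; omega
  have e2 : q ^ (2 * n - 1) = q * (q ^ (n - 1)) ^ 2 := by
    rw [← pow_mul, ← pow_succ']; congr 1; omega
  rw [e1, e2, hy, Nat.add_sub_cancel]
  nlinarith [Nat.zero_le (q * y), Nat.zero_le y]

lemma s1d_exact (q k I g N : ℕ) (hq : 2 ≤ q) (hg : 0 < g)
    (h : I * ((q + 1) * g) = g * (q ^ k * (q ^ (k + 1) + 1)))
    (hN : N * ((q - 1) * (q + 1)) = (q ^ (k + 1) + 1) * (q ^ k - 1)) : N ≤ I := by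
  have h1 : I * (q + 1) = q ^ k * (q ^ (k + 1) + 1) := by
    apply Nat.eq_of_mul_eq_mul_left hg
    rw [← h]; ring
  have hpos : 0 < (q - 1) * (q + 1) := Nat.mul_pos (by omega) (by omega)
  apply Nat.le_of_mul_le_mul_right _ hpos
  rw [hN]
  have h2 : q ^ k - 1 ≤ q ^ k * (q - 1) :=
    (Nat.sub_le _ _).trans (Nat.le_mul_of_pos_right _ (by omega))
  calc (q ^ (k + 1) + 1) * (q ^ k - 1) ≤ (q ^ (k + 1) + 1) * (q ^ k * (q - 1)) :=
        Nat.mul_le_mul le_rfl h2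
    _ = (q ^ k * (q ^ (k + 1) + 1)) * (q - 1) := by ring
    _ = I * ((q - 1) * (q + 1)) := by rw [← h1]; ring

/-- from `q^e ≤ I (q+1)^2` -/
lemma s1d_gen (q n e c N I : ℕ) (hq : 2 ≤ q) (hN : N * ((q - 1) * (q + 1)) ≤ q ^ (2 * n - 1))
    (hI : q ^ e ≤ I * (q + 1) ^ 2) (hc : c * (q + 1) * q ^ (2 * n - 1) ≤ q ^ e) :
    c * N ≤ I := by
  have hpos : 0 < (q + 1) ^ 2 * (q - 1) := Nat.mul_pos (by positivity) (by omega)
  apply Nat.le_of_mul_le_mul_right _ hpos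
  calc c * N * ((q + 1) ^ 2 * (q - 1)) = c * (q + 1) * (N * ((q - 1) * (q + 1))) := by ring
    _ ≤ c * (q + 1) * q ^ (2 * n - 1) := Nat.mul_le_mul le_rfl hN
    _ ≤ q ^ e := hc
    _ ≤ q ^ e * (q - 1) := Nat.le_mul_of_pos_right _ (by omega)
    _ ≤ I * (q + 1) ^ 2 * (q - 1) := Nat.mul_le_mul hI le_rfl
    _ = I * ((q + 1) ^ 2 * (q - 1)) := by ring

lemma s1d_aux3 (j l : ℕ) (hj : 2 ≤ j) (hl : 2 ≤ l) : 2 * (j + l) ≤ j * l + 4 := by
  obtain ⟨j', rfl⟩ : ∃ j', j = j' + 2 := ⟨j - 2, by omega⟩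
  obtain ⟨l', rfl⟩ : ∃ l', l = l' + 2 := ⟨l - 2, by omega⟩
  nlinarith [Nat.zero_le (j' * l')]

variable {F : Type*} [Field F] [Fintype F] {q m n : ℕ}

lemma card_GU_succ_even (hF : Fintype.card F = q ^ 2) (k : ℕ) (hk : Even k) :
    Nat.card (Cfsg.GU (k + 1) F q) = Nat.card (Cfsg.GU k F q) * (q ^ k * (q ^ (k + 1) + 1)) := by
  rw [card_GU hF (k + 1), card_GU hF k, Finset.prod_range_succ, if_pos hk]
  have e : (k + 1) * (k + 1 - 1) / 2 = k * (k - 1) / 2 + k := by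
    have : (k + 1) * (k + 1 - 1) = k * (k - 1) + k * 2 := by
      cases k with
      | zero => rfl
      | succ k => simp only [Nat.add_sub_cancel]; ring
    rw [this, Nat.add_mul_div_right _ _ (by norm_num)]
  rw [e, pow_add]
  ring

lemma card_GU_one (hF : Fintype.card F = q ^ 2) : Nat.card (Cfsg.GU 1 F q) = q + 1 := by
  rw [card_GU hF 1]
  simp

/-- [oS1d] -/
theorem index_stab_nondeg (hF : Fintype.card F = q ^ 2) (hn : 5 ≤ n) (ho : Odd n)
    (W : Submodule F (Fin n → F)) (hW0 : W ≠ ⊥) (hW1 : W ≠ ⊤) (hW : Nondeg q W)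
    (K : Subgroup (Cfsg.SU n F q)) (hK : ∀ k ∈ K, ∀ x ∈ W, k.1.1 *ᵥ x ∈ W) :
    NO q n ≤ K.index ∧
      (3 ≤ Module.finrank F W → Module.finrank F W + 3 ≤ n → n * NO q n ≤ K.index) := by
  have hq := two_le_of_card_sq hF
  have hle := index_St_le W K hK
  have h1 := index_St_mul hF (by omega) W
  rw [card_su_stab_nondeg_mul hF W hW0 hW] at h1
  set j := finrank F W with hj
  have hjpos : 0 < j := by
    rw [hj, Module.finrank_pos_iff, Submodule.nontrivial_iff_ne_bot]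
    exact hW0
  have hjlt : j < n := by
    have := Submodule.finrank_lt hW1
    rwa [Module.finrank_fintype_fun_eq_card, Fintype.card_fin] at this
  obtain ⟨l, hl⟩ : ∃ l, n = j + l := ⟨n - j, by omega⟩
  have hnl : n - j = l := by omega
  rw [hnl] at h1
  have hb := s1d_arith q j l _ _ _ _ (by omega) h1 (by rw [← hl]; exact (card_GU_bounds hF n).1)
    (card_GU_bounds hF j).2 (card_GU_bounds hF l).2
  have hN := NO_le hq (by omega) ho
  have hq2 : q + 1 ≤ q ^ 2 := by nlinarith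
  obtain ⟨k, hk⟩ : ∃ k, n = k + 1 := ⟨n - 1, by omega⟩
  have hke : Even k := by
    rcases Nat.even_or_odd k with h | h
    · exact h
    · exfalso
      have : Even n := by rw [hk]; exact h.add_one
      exact (Nat.not_even_iff_odd.2 ho) this
  have hNeq : NO q n * ((q - 1) * (q + 1)) = (q ^ (k + 1) + 1) * (q ^ k - 1) := by
    rw [← sq_sub_one q (by omega), Cfsg.Agent.Lib.Helper12.MinSU.O.NO_mul hq ho, hk,
      Nat.add_sub_cancel]
  have hgpos : 0 < Nat.card (Cfsg.GU k F q) :=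
    lt_of_lt_of_le (Nat.pow_pos (by omega)) (card_GU_bounds hF k).1
  have hGn : Nat.card (Cfsg.GU n F q)
      = Nat.card (Cfsg.GU k F q) * (q ^ k * (q ^ (k + 1) + 1)) := by
    rw [hk]; exact card_GU_succ_even hF k hke
  constructor
  · refine le_trans ?_ hle
    by_cases hj1 : j = 1
    · have hlk : l = k := by omega
      rw [hj1, hlk, card_GU_one hF, hGn] at h1
      exact s1d_exact q k _ _ _ hq hgpos h1 hNeq
    by_cases hl1 : l = 1
    · have hjk : j = k := by omega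
      rw [hl1, hjk, card_GU_one hF, hGn, mul_comm _ (q + 1)] at h1
      exact s1d_exact q k _ _ _ hq hgpos h1 hNeq
    have h3 := s1d_gen q n _ 1 _ _ hq hN hb ?_
    · rwa [one_mul] at h3
    · calc 1 * (q + 1) * q ^ (2 * n - 1) ≤ q ^ 2 * q ^ (2 * n - 1) := by
            rw [one_mul]; exact Nat.mul_le_mul hq2 le_rfl
        _ = q ^ (2 + (2 * n - 1)) := by rw [← pow_add]
        _ ≤ q ^ (2 * (j * l) + 2) := by
            apply Nat.pow_le_pow_right (by omega)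
            have : 2 * (j + l) ≤ j * l + 4 := s1d_aux3 j l (by omega) (by omega)
            omega
  · intro h3 h3'
    refine le_trans ?_ hle
    refine s1d_gen q n _ n _ _ hq hN hb ?_
    have hnq : n ≤ q ^ n := (Nat.lt_pow_self (by omega)).le
    calc n * (q + 1) * q ^ (2 * n - 1) ≤ q ^ n * q ^ 2 * q ^ (2 * n - 1) :=
          Nat.mul_le_mul (Nat.mul_le_mul hnq hq2) le_rfl
      _ = q ^ (n + 2 + (2 * n - 1)) := by rw [← pow_add, ← pow_add]
      _ ≤ q ^ (2 * (j * l) + 2) := by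
          apply Nat.pow_le_pow_right (by omega)
          have : 3 * (j + l) ≤ j * l + 9 := s1d_aux2 j l h3 (by omega)
          omega

end Cfsg.Agent.Lib.Helper62.MinSU.O
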