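import Mathlib
import Cfsg.Agent.Lib.Helper83.MinSU.DefsO
import Cfsg.Agent.Lib.Helper62.MinSU.S1
import Cfsg.Agent.Lib.Helper1.MinSU.oKW
import Cfsg.Agent.Lib.Helper1.MinSU.oS1e
import Cfsg.Agent.Lib.Helper92.MinSU.oU1t2

/-! [oS1] of the S2151 farm, in hypothesis form (oS1c, oS1d as hypotheses). -/

set_option autoImplicit false

namespace Cfsg.Agent.Lib.Helper62.MinSU.O

open Matrix Cfsg.Agent.Lib.Helper13 Cfsg.Agent.Lib.Helper5 Cfsg.Agent.Lib.Helper57.RootSU
  Cfsg.Agent.Lib.Helper83.MinSU Cfsg.Agent.Lib.Helper62.MinSU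
  Cfsg.Agent.Lib.Helper94 Cfsg.Agent.Lib.Helper94.U Cfsg.Agent.Lib.Helper45.SUGen
open Cfsg.Agent.Lib.Helper1.MinSU.O (scal_all)
open Cfsg.Agent.Lib.Helper92.MinSU.O (rs_five)
open Cfsg.Agent.Lib.Helper8.MinSU (rs_three rs_inv scal_Fq rs_mix)

variable {F : Type*} [Field F] [Fintype F] {q m n : ℕ}

/-- if all isotropic vectors are in `RS` then `K = ⊤` -/
lemma eq_top_of_all (hF : Fintype.card F = q ^ 2) (hn : 4 ≤ n)
    (K : Subgroup (Cfsg.SU n F q))
    (h : ∀ v : Fin n → F, Cfsg.hermForm n F q v v = 0 → v ∈ RS hF K) : K = ⊤ := by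
  rw [eq_top_iff, ← Cfsg.Agent.S0780.result hF n (by omega) (by omega), Subgroup.closure_le]
  rintro A ⟨v, c, hv, hA⟩
  by_cases hv0 : v = 0
  · have : A = 1 := by
      apply SU_ext_mulVec
      intro x
      rw [hA, unitaryTransvection_mulVec, hv0, SU_one_mulVec]; simp
    rw [this]
    exact K.one_mem
  · have hc := skew_of_ut_mem hF A hv0 hv hA
    have : A = ut hF v c := by
      apply SU_ext_mulVec
      intro x
      rw [hA, unitaryTransvection_mulVec, ut_mulVec hF hv hc]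
    rw [this]
    exact (h v hv).2 c hc

lemma exists_not_fixed_q (hF : Fintype.card F = q ^ 2) : ∃ mu : F, mu ^ q ≠ mu :=
  (hermH hF 0).exists_not_fixed

theorem step1_aux (hF : Fintype.card F = q ^ 2) (hn : 5 ≤ n)
    (hti : ∀ (R : Submodule F (Fin n → F)), R ≠ ⊥ →
      (∀ u ∈ R, ∀ v ∈ R, Cfsg.hermForm n F q u v = 0) →
      ∀ (K : Subgroup (Cfsg.SU n F q)), (∀ k ∈ K, ∀ x ∈ R, k.1.1 *ᵥ x ∈ R) → NO q n ≤ K.index)
    (hnd : ∀ (W : Submodule F (Fin n → F)), W ≠ ⊥ → W ≠ ⊤ → Nondeg q W →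
      ∀ (K : Subgroup (Cfsg.SU n F q)), (∀ k ∈ K, ∀ x ∈ W, k.1.1 *ᵥ x ∈ W) →
      NO q n ≤ K.index ∧
        (3 ≤ Module.finrank F W → Module.finrank F W + 3 ≤ n → n * NO q n ≤ K.index))
    (K : Subgroup (Cfsg.SU n F q)) (hK : K ≠ ⊤)
    (W : Submodule F (Fin n → F)) (hW : Nondeg q W) (hB : BigW q W)
    (hX : ∀ v ∈ W, Cfsg.hermForm n F q v v = 0 → v ∈ RS hF K) :
    NO q n ≤ K.index := by
  induction hk : n - Module.finrank F W using Nat.strong_induction_on generalizing W with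
  | _ k ih =>
  have hq2 := two_le_of_card_sq hF
  have hd : 3 ≤ Module.finrank F W := by
    rcases hB with h | h
    · exact h.2
    · omega
  have hle : ∀ W' : Submodule F (Fin n → F), Module.finrank F W' ≤ n := by
    intro W'
    have := Submodule.finrank_le W'
    rwa [Module.finrank_fin_fun] at this
  have hmax : ∀ W' : Submodule F (Fin n → F), Nondeg q W' →
      Module.finrank F W < Module.finrank F W' →
      (∀ v ∈ W', Cfsg.hermForm n F q v v = 0 → v ∈ RS hF K) → NO q n ≤ K.index := by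
    intro W' h1 h2 h3
    have := hle W'
    have hB' : BigW q W' := by
      rcases hB with h | h
      · exact Or.inl ⟨h.1, by omega⟩
      · exact Or.inr (by omega)
    exact ih (n - Module.finrank F W') (by omega) W' h1 hB' h3 rfl
  by_contra hG
  have hcomm : ∀ {a b : Fin n → F}, Cfsg.hermForm n F q a b = 0 → Cfsg.hermForm n F q b a = 0 :=
    fun h => hermForm_eq_zero_comm hF h
  -- (E)
  have hE : ∀ x1 ∈ W, ∀ x2 : Fin n → F, (∀ w ∈ W, Cfsg.hermForm n F q x2 w = 0) →
      x1 + x2 ∈ RS hF K → Cfsg.hermForm n F q x1 x1 = 0 := by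
    intro x1 hx1 x2 hx2 hx
    by_contra hne
    obtain ⟨W', h1, h2, h3⟩ := Cfsg.Agent.Lib.Helper1.MinSU.O.enlarge hF K W hW hB hX x1 x2 hx1 hx2 hne hx
    exact hG (hmax W' h1 h2 h3)
  -- (P)
  have hP : ∀ x1 ∈ W, x1 ≠ 0 → ∀ x2 : Fin n → F, (∀ w ∈ W, Cfsg.hermForm n F q x2 w = 0) →
      x1 + x2 ∈ RS hF K → x2 ∈ RS hF K := by
    intro x1 hx1 hx10 x2 hx2 hx
    have hiso1 := hE x1 hx1 x2 hx2 hx
    have hiso2 : Cfsg.hermForm n F q x2 x2 = 0 := by
      have h := hx.1
      simp only [hermForm_add_left, hermForm_add_right hF, hx2 x1 hx1, hcomm (hx2 x1 hx1),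
        hiso1] at h
      linear_combination h
    by_cases hq : 3 ≤ q
    · obtain ⟨u, huW, hu, hxu⟩ := exists_iso_partner hF W hW hx1 hx10 hiso1
      obtain ⟨l, hl, hl0, hl1⟩ := exists_Fq hF hq
      obtain ⟨k, hkK, hk1, hk2⟩ := scal_Fq hF K x1 u (hX x1 hx1 hiso1) (hX u huW hu) hxu l hl hl0
      have h3 := (rs_inv hF K _ hx).1 k hkK
      rw [Matrix.mulVec_add, hk1, hk2 x2 (hx2 x1 hx1) (hx2 u huW)] at h3
      refine rs_three hF K x2 x1 hiso2 (hx2 x1 hx1) l hl hl0 hl1 (hX x1 hx1 hiso1) ?_ ?_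
      · rw [add_comm]; exact hx
      · rw [add_comm]; exact h3
    · obtain rfl : q = 2 := by omega
      refine rs_five hF K x2 x1 hiso2 (hx2 x1 hx1) (hX x1 hx1 hiso1) ?_
      intro mu hmu
      obtain ⟨k, hkK, hk1, hk2⟩ := scal_all hF K W hW hB hX x1 hx1 hiso1 mu hmu
      have h3 := (rs_inv hF K _ hx).1 k hkK
      rw [Matrix.mulVec_add, hk1, hk2 x2 hx2] at h3
      rw [add_comm]
      exact h3
  have hW0 : W ≠ ⊥ := by
    rintro rfl
    rw [finrank_bot] at hd
    omega
  have hW1 : W ≠ ⊤ := by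
    rintro rfl
    exact hK (eq_top_of_all hF (by omega) K (fun v hv => hX v trivial hv))
  by_cases hmix : ∃ x1 ∈ W, x1 ≠ 0 ∧ ∃ x2 : Fin n → F, x2 ≠ 0 ∧
      (∀ w ∈ W, Cfsg.hermForm n F q x2 w = 0) ∧ x1 + x2 ∈ RS hF K
  · obtain ⟨x1, hx1, hx10, x2, hx20, hx2, hx⟩ := hmix
    have hiso1 := hE x1 hx1 x2 hx2 hx
    have hx2RS := hP x1 hx1 hx10 x2 hx2 hx
    by_cases hy : ∃ y ∈ RS hF K, Cfsg.hermForm n F q x2 y ≠ 0
    · obtain ⟨y, hyRS, hxy⟩ := hy
      obtain ⟨y1, hy1, y2, hy2, rfl⟩ := exists_decomp hF W hW y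
      have hxy2 : Cfsg.hermForm n F q x2 y2 ≠ 0 := by
        rw [hermForm_add_right hF, hx2 y1 hy1, zero_add] at hxy
        exact hxy
      have hy2RS : y2 ∈ RS hF K := by
        by_cases hy10 : y1 = 0
        · rw [hy10, zero_add] at hyRS
          exact hyRS
        · exact hP y1 hy1 hy10 y2 hy2 hyRS
      obtain ⟨u, huW, hu, hxu⟩ := exists_iso_partner hF W hW hx1 hx10 hiso1
      obtain ⟨mu, hmu⟩ := exists_not_fixed_q hF
      have hmu0 : mu ≠ 0 := by
        rintro rfl
        exact hmu (zero_pow (by omega))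
      obtain ⟨k, hkK, hk1, hk2⟩ := scal_all hF K W hW hB hX x1 hx1 hiso1 mu hmu0
      have h3 := (rs_inv hF K _ hx).1 k hkK
      rw [Matrix.mulVec_add, hk1, hk2 x2 hx2] at h3
      obtain ⟨a, b, c, d, hne, hmem⟩ := rs_mix hF K x1 u x2 y2 mu hmu hiso1 hx2RS.1
        (hcomm (hx2 x1 hx1)) (hcomm (hy2 x1 hx1)) (hcomm (hx2 u huW)) (hcomm (hy2 u huW)) hxu hxy2
        (hX u huW hu) hy2RS hx h3
      apply hne
      refine hE _ (W.add_mem (W.smul_mem a hx1) (W.smul_mem b huW)) _ ?_ hmem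
      intro w hw
      rw [hermForm_add_left, hermForm_smul_left, hermForm_smul_left, hx2 w hw, hy2 w hw]
      ring
    · push Not at hy
      apply hG
      refine hti (Submodule.span F (RS hF K) ⊓ perpS q (RS hF K)) ?_ ?_ K ?_
      · intro h
        have : x2 ∈ Submodule.span F (RS hF K) ⊓ perpS q (RS hF K) :=
          ⟨Submodule.subset_span hx2RS, hy⟩
        rw [h] at this
        exact hx20 ((Submodule.mem_bot F).1 this)
      · intro u hu v hv
        exact perp_span hF hu.2 v hv.1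
      · intro k hkK x hxR
        refine ⟨?_, ?_⟩
        · have : Submodule.span F (RS hF K) ≤
              (Submodule.span F (RS hF K)).comap (Matrix.mulVecLin k.1.1) := by
            rw [Submodule.span_le]
            intro z hz
            exact Submodule.subset_span ((rs_inv hF K z hz).1 k hkK)
          exact this hxR.1
        · intro y hyRS
          have h1 := (rs_inv hF K y hyRS).1 k⁻¹ (K.inv_mem hkK)
          have h2 := hxR.2 _ h1
          rw [← SU_preserves k, SU_mulVec_inv_mulVec] at h2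
          exact h2
  · -- `RS ⊆ W ∪ W^⊥`
    have hsep : ∀ x ∈ RS hF K, x ∈ W ∨ x ∈ perpS q (W : Set (Fin n → F)) := by
      intro x hx
      obtain ⟨x1, hx1, x2, hx2, rfl⟩ := exists_decomp hF W hW x
      by_cases hx10 : x1 = 0
      · right
        rw [hx10, zero_add]
        exact hx2
      · by_cases hx20 : x2 = 0
        · left
          rw [hx20, add_zero]
          exact hx1
        · exact absurd ⟨x1, hx1, hx10, x2, hx20, hx2, hx⟩ hmix
    have hdich : ∀ k ∈ K, (∀ x ∈ W, k.1.1 *ᵥ x ∈ W) ∨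
        (∀ x ∈ W, ∀ y ∈ W, Cfsg.hermForm n F q (k.1.1 *ᵥ x) y = 0) := by
      intro k hkK
      have hkRS : ∀ u ∈ W, Cfsg.hermForm n F q u u = 0 → k.1.1 *ᵥ u ∈ RS hF K :=
        fun u hu hiso => (rs_inv hF K u (hX u hu hiso)).1 k hkK
      by_cases hall : ∀ u ∈ W, Cfsg.hermForm n F q u u = 0 → k.1.1 *ᵥ u ∈ W
      · left
        exact le_of_iso_mem hF W hW (by omega) (W.comap (Matrix.mulVecLin k.1.1)) hall
      · right
        push Not at hall
        obtain ⟨u0, hu0W, hu0, hku0⟩ := hall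
        have hku0p : k.1.1 *ᵥ u0 ∈ perpS q (W : Set (Fin n → F)) :=
          (hsep _ (hkRS u0 hu0W hu0)).resolve_left hku0
        have hallp : ∀ u ∈ W, Cfsg.hermForm n F q u u = 0 →
            k.1.1 *ᵥ u ∈ perpS q (W : Set (Fin n → F)) := by
          intro u huW hu
          rcases hsep _ (hkRS u huW hu) with h | h
          · -- `k u ∈ W`
            have horth : Cfsg.hermForm n F q u0 u = 0 := by
              rw [← SU_preserves k]
              exact hku0p _ h
            have hsum : Cfsg.hermForm n F q (u + u0) (u + u0) = 0 := by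
              simp only [hermForm_add_left, hermForm_add_right hF, hu, hu0, horth, hcomm horth]
              ring
            rcases hsep _ (hkRS (u + u0) (W.add_mem huW hu0W) hsum) with h' | h'
            · exfalso
              apply hku0
              rw [Matrix.mulVec_add] at h'
              have := W.sub_mem h' h
              rwa [add_sub_cancel_left] at this
            · rw [Matrix.mulVec_add] at h'
              have := (perpS q (W : Set (Fin n → F))).sub_mem h' hku0p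
              rwa [add_sub_cancel_right] at this
          · exact h
        exact le_of_iso_mem hF W hW (by omega)
          ((perpS q (W : Set (Fin n → F))).comap (Matrix.mulVecLin k.1.1)) hallp
    by_cases hstab : ∀ k ∈ K, ∀ x ∈ W, k.1.1 *ᵥ x ∈ W
    · exact hG (hnd W hW0 hW1 hW K hstab).1
    · push Not at hstab
      obtain ⟨k, hkK, x, hxW, hkx⟩ := hstab
      have hperp := (hdich k hkK).resolve_left (fun h => hkx (h x hxW))
      have hinj : Function.Injective (Matrix.mulVecLin k.1.1) := by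
        intro a b hab
        have h1 : k.1.1 *ᵥ a = k.1.1 *ᵥ b := hab
        rw [← SU_inv_mulVec_mulVec k a, h1, SU_inv_mulVec_mulVec]
      have hfr : Module.finrank F (W.map (Matrix.mulVecLin k.1.1)) = Module.finrank F W :=
        (Submodule.equivMapOfInjective _ hinj W).finrank_eq.symm
      have hinf : W ⊓ W.map (Matrix.mulVecLin k.1.1) = ⊥ := by
        rw [eq_bot_iff]
        rintro z ⟨hzW, w, hw, rfl⟩
        rw [Submodule.mem_bot]
        exact hW _ hzW (fun y hy => hperp w hw y hy)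
      have hsum := Submodule.finrank_sup_add_finrank_inf_eq W (W.map (Matrix.mulVecLin k.1.1))
      rw [hinf, finrank_bot, hfr, add_zero] at hsum
      have hle2 := hle (W ⊔ W.map (Matrix.mulVecLin k.1.1))
      obtain ⟨K0, -, hK0W, hidx⟩ := relIndex_stab_le hF W hW0 hW K hdich
      have h5 := (hnd W hW0 hW1 hW K0 hK0W).2 hd (by omega)
      apply hG
      have h6 : n * NO q n ≤ n * K.index := by
        rw [mul_comm n K.index]
        exact h5.trans hidx
      exact Nat.le_of_mul_le_mul_left h6 (by omega)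

/-- [oS1] in hypothesis form -/
theorem step1_of (hF : Fintype.card F = q ^ 2) (hn : 5 ≤ n)
    (hti : ∀ (R : Submodule F (Fin n → F)), R ≠ ⊥ →
      (∀ u ∈ R, ∀ v ∈ R, Cfsg.hermForm n F q u v = 0) →
      ∀ (K : Subgroup (Cfsg.SU n F q)), (∀ k ∈ K, ∀ x ∈ R, k.1.1 *ᵥ x ∈ R) → NO q n ≤ K.index)
    (hnd : ∀ (W : Submodule F (Fin n → F)), W ≠ ⊥ → W ≠ ⊤ → Nondeg q W →
      ∀ (K : Subgroup (Cfsg.SU n F q)), (∀ k ∈ K, ∀ x ∈ W, k.1.1 *ᵥ x ∈ W) →
      NO q n ≤ K.index ∧
        (3 ≤ Module.finrank F W → Module.finrank F W + 3 ≤ n → n * NO q n ≤ K.index))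
    (K : Subgroup (Cfsg.SU n F q)) (hK : K ≠ ⊤) (hB : HasBig hF K) :
    NO q n ≤ K.index := by
  obtain ⟨W, hW, hBW, hX⟩ := hB
  exact step1_aux hF hn hti hnd K hK W hW hBW hX

end Cfsg.Agent.Lib.Helper62.MinSU.O
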